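import Cfsg.Agent.OmegaSevenThree.Group

/-!
The special centraliser of the map with chains of lengths three, two, two lies in the kernel of the
spinor norm.
-/

set_option autoImplicit false

namespace Cfsg.Agent.O73

open Matrix

/-- Passing to coordinates in the frame of a model. -/
def inFrame (k : Fin 6) (A : Matrix Ix Ix K3) : Matrix (Fin 7) (Fin 7) K3 :=
  coframeM k * A * frameM k

theorem inFrame_mul (k : Fin 6) (A B : Matrix Ix Ix K3) :
    inFrame k (A * B) = inFrame k A * inFrame k B := by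
  simp only [inFrame, Matrix.mul_assoc]
  rw [← Matrix.mul_assoc (frameM k) (coframeM k), frame_mul_coframe, Matrix.one_mul]

theorem inFrame_one (k : Fin 6) : inFrame k 1 = 1 := by
  rw [inFrame, Matrix.mul_one, coframe_mul_frame]

theorem inFrame_injective (k : Fin 6) {A B : Matrix Ix Ix K3} (h : inFrame k A = inFrame k B) :
    A = B := by
  have h' : ∀ A : Matrix Ix Ix K3, frameM k * inFrame k A * coframeM k = A := fun A => by
    simp only [inFrame, ← Matrix.mul_assoc, frame_mul_coframe, Matrix.one_mul]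
    rw [Matrix.mul_assoc, frame_mul_coframe, Matrix.mul_one]
  rw [← h' A, h, h']

theorem inFrame_nilM (k : Fin 6) : inFrame k (nilM k) = shiftM k := by
  simp only [inFrame, nilM, ← Matrix.mul_assoc, coframe_mul_frame, Matrix.one_mul]
  rw [Matrix.mul_assoc, coframe_mul_frame, Matrix.mul_one]

theorem inFrame_gram (k : Fin 6) (g : OG) :
    (inFrame k (mt g)).transpose * gramM k * inFrame k (mt g) = gramM k := by
  rw [← frame_gram k]
  simp only [inFrame, Matrix.transpose_mul, Matrix.mul_assoc]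
  rw [← Matrix.mul_assoc (frameM k) (coframeM k), frame_mul_coframe, Matrix.one_mul,
    ← Matrix.mul_assoc (coframeM k).transpose, ← Matrix.transpose_mul, frame_mul_coframe,
    Matrix.transpose_one, Matrix.one_mul, ← Matrix.mul_assoc Jf, ← Matrix.mul_assoc (mt g).transpose,
    ← Matrix.mul_assoc (mt g).transpose Jf, mt_gram]

theorem inFrame_det (k : Fin 6) (A : Matrix Ix Ix K3) : (inFrame k A).det = A.det := by
  have h : (inFrame k A).submatrix posEquiv posEquiv
      = (coframeM k).submatrix posEquiv id * A * (frameM k).submatrix id posEquiv := rfl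
  have h1 : (frameM k).submatrix id posEquiv * (coframeM k).submatrix posEquiv id = 1 := by
    rw [Matrix.submatrix_mul_equiv, frame_mul_coframe, Matrix.submatrix_id_id]
  rw [← Matrix.det_submatrix_equiv_self posEquiv (inFrame k A), h, Matrix.det_mul, Matrix.det_mul,
    mul_comm ((coframeM k).submatrix posEquiv id).det, mul_assoc, ← Matrix.det_mul,
    mul_eq_one_comm.1 h1, Matrix.det_one, mul_one]

/-- The lift of a two by two matrix to the centraliser. -/
def blk (N : Matrix (Fin 2) (Fin 2) K3) : Matrix (Fin 7) (Fin 7) K3 :=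
  !![1, 0, 0, 0, 0, 0, 0; 0, N 0 0, N 0 1, 0, 0, 0, 0; 0, N 1 0, N 1 1, 0, 0, 0, 0;
     0, 0, 0, 1, 0, 0, 0; 0, 0, 0, 0, N 0 0, N 0 1, 0; 0, 0, 0, 0, N 1 0, N 1 1, 0;
     0, 0, 0, 0, 0, 0, 1]

theorem blk_one : blk 1 = 1 := by decide +kernel

theorem blk_mul (N N' : Matrix (Fin 2) (Fin 2) K3) : blk (N * N') = blk N * blk N' := by
  ext i j
  fin_cases i <;> fin_cases j <;>
    simp [blk, Matrix.mul_apply, Fin.sum_univ_seven, Fin.sum_univ_two]

theorem blk_pow (N : Matrix (Fin 2) (Fin 2) K3) (n : ℕ) : blk (N ^ n) = blk N ^ n := by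
  induction n with
  | zero => simp [blk_one]
  | succ n ih => rw [pow_succ, pow_succ, blk_mul, ih]

/-- The upper unitriangular generator. -/
def genT : Matrix (Fin 2) (Fin 2) K3 := !![1, 1; 0, 1]

/-- The lower unitriangular generator. -/
def genU : Matrix (Fin 2) (Fin 2) K3 := !![1, 0; 1, 1]

theorem exists_word : ∀ a b c d : K3, a * d - b * c = 1 → ∃ i j k l : Fin 3,
    (!![a, b; c, d] : Matrix (Fin 2) (Fin 2) K3) *
      (genT ^ (i : ℕ) * genU ^ (j : ℕ) * genT ^ (k : ℕ) * genU ^ (l : ℕ)) = 1 := by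
  decide +kernel

/-- Lift of the upper generator. -/
def liftT : OG := mkO (frameM 3 * blk genT * coframeM 3) (by decide +kernel)

/-- Lift of the lower generator. -/
def liftU : OG := mkO (frameM 3 * blk genU * coframeM 3) (by decide +kernel)

theorem pow_nine {A : Matrix (Fin 7) (Fin 7) K3} (h : A.BlockTriangular id) (hd : ∀ i, A i i = 1) :
    A ^ 9 = 1 := by
  have hc := Matrix.charpoly_of_upperTriangular A h
  have h7 := Matrix.aeval_self_charpoly A
  rw [hc] at h7
  simp only [hd, Polynomial.C_1, Finset.prod_const, Finset.card_univ, Fintype.card_fin, map_pow,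
    map_sub, Polynomial.aeval_X, map_one] at h7
  have h9 : (A - 1) ^ 9 = 0 := by rw [pow_add _ 7 2, h7, zero_mul]
  have h' := sub_pow_char_pow_of_commute (p := 3) (n := 2) (Commute.one_right A)
  rw [show (3 : ℕ) ^ 2 = 9 by norm_num, h9, one_pow] at h'
  exact sub_eq_zero.1 h'.symm

theorem commute_entries (A : Matrix (Fin 7) (Fin 7) K3) (h : A * shiftM 3 = shiftM 3 * A) :
    A 3 0 = 0 ∧ A 3 1 = 0 ∧ A 3 2 = 0 ∧ A 4 0 = 0 ∧ A 4 1 = 0 ∧ A 4 2 = 0 ∧ A 4 3 = 0 ∧ A 5 0 = 0 ∧ A 5 1 = 0 ∧ A 5 2 = 0 ∧ A 5 3 = 0 ∧ A 6 0 = 0 ∧ A 6 1 = 0 ∧ A 6 2 = 0 ∧ A 6 3 = 0 ∧ A 6 4 = 0 ∧ A 6 5 = 0 ∧ A 1 0 = 0 ∧ A 2 0 = 0 ∧ A 3 3 = A 0 0 ∧ A 6 6 = A 0 0 ∧ A 4 4 = A 1 1 ∧ A 4 5 = A 1 2 ∧ A 5 4 = A 2 1 ∧ A 5 5 = A 2 2 := by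
  have e := fun i j => congrFun (congrFun h i) j
  have e00 := e 0 0
  have e01 := e 0 1
  have e02 := e 0 2
  have e10 := e 1 0
  have e11 := e 1 1
  have e12 := e 1 2
  have e20 := e 2 0
  have e21 := e 2 1
  have e22 := e 2 2
  have e30 := e 3 0
  have e31 := e 3 1
  have e32 := e 3 2
  have e43 := e 4 3
  have e44 := e 4 4
  have e45 := e 4 5
  have e46 := e 4 6
  have e53 := e 5 3
  have e54 := e 5 4
  have e55 := e 5 5
  have e56 := e 5 6
  have e63 := e 6 3
  have e64 := e 6 4
  have e65 := e 6 5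
  have e66 := e 6 6
  have e34 := e 3 4
  have e35 := e 3 5
  have e13 := e 1 3
  have e23 := e 2 3
  have e03 := e 0 3
  have e36 := e 3 6
  have e14 := e 1 4
  have e15 := e 1 5
  have e24 := e 2 4
  have e25 := e 2 5
  simp [Matrix.mul_apply, Fin.sum_univ_seven, shiftM] at e00 e01 e02 e10 e11 e12 e20 e21 e22 e30 e31 e32 e43 e44 e45 e46 e53 e54 e55 e56 e63 e64 e65 e66 e34 e35 e13 e23 e03 e36 e14 e15 e24 e25
  grind

theorem theta_centralizer {g : OG} (hc : mt g * nilM 3 = nilM 3 * mt g) (hd : (mt g).det = 1) :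
    theta g = 1 := by
  obtain ⟨A, hA⟩ : ∃ A, inFrame 3 (mt g) = A := ⟨_, rfl⟩
  have hAM : A * shiftM 3 = shiftM 3 * A := by
    rw [← hA, ← inFrame_nilM, ← inFrame_mul, hc, inFrame_mul]
  obtain ⟨z30, z31, z32, z40, z41, z42, z43, z50, z51, z52, z53, z60, z61, z62, z63, z64, z65, z10, z20, q33, q66, q44, q45, q54, q55⟩ := commute_entries A hAM
  have hdet : A 1 1 * A 2 2 - A 1 2 * A 2 1 = 1 := by
    have := congrFun (congrFun (inFrame_gram 3 g) 1) 5
    rw [hA] at this
    simp [Matrix.mul_apply, Fin.sum_univ_seven, gramM, z30, z31, z32, z40, z41, z42, z43, z50, z51, z52, z53, z60, z61, z62, z63, z64, z65, z10, z20, q33, q66, q44, q45, q54, q55] at this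
    have h3 : (3 : K3) = 0 := by decide
    linear_combination this - A 2 1 * A 1 2 * h3
  obtain ⟨i, j, k, l, hw⟩ := exists_word _ _ _ _ hdet
  set N := genT ^ (i : ℕ) * genU ^ (j : ℕ) * genT ^ (k : ℕ) * genU ^ (l : ℕ) with hN
  set h := liftT ^ (i : ℕ) * liftU ^ (j : ℕ) * liftT ^ (k : ℕ) * liftU ^ (l : ℕ) with hh
  have hT : inFrame 3 (mt liftT) = blk genT := by decide +kernel
  have hU : inFrame 3 (mt liftU) = blk genU := by decide +kernel
  have hp : ∀ (x : OG) n, inFrame 3 (mt (x ^ n)) = inFrame 3 (mt x) ^ n := fun x n => by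
    induction n with
    | zero => simp [mt_one, inFrame_one]
    | succ n ih => rw [pow_succ, pow_succ, mt_mul, inFrame_mul, ih]
  have hhN : inFrame 3 (mt h) = blk N := by
    simp only [hh, hN, mt_mul, inFrame_mul, hp, hT, hU, blk_mul, blk_pow]
  have hθT : theta liftT = 1 := theta_of_pow (n := 3) (by decide) (mt_injective (by
    rw [mt_pow]; exact inFrame_injective 3 (by rw [← mt_pow, hp, hT]; decide +kernel)))
  have hθU : theta liftU = 1 := theta_of_pow (n := 3) (by decide) (mt_injective (by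
    rw [mt_pow]; exact inFrame_injective 3 (by rw [← mt_pow, hp, hU]; decide +kernel)))
  have hθh : theta h = 1 := by simp [hh, hθT, hθU]
  have hdh : (mt h).det = 1 := by
    have := theta_fst h
    rw [hθh] at this
    by_contra hne
    rw [if_neg hne] at this
    simp at this
  obtain ⟨B, hB⟩ : ∃ B, A * blk N = B := ⟨_, rfl⟩
  have hBeq : B = inFrame 3 (mt (g * h)) := by rw [mt_mul, inFrame_mul, hhN, hA, hB]
  have w00 := congrFun (congrFun hw 0) 0
  have w01 := congrFun (congrFun hw 0) 1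
  have w10 := congrFun (congrFun hw 1) 0
  have w11 := congrFun (congrFun hw 1) 1
  simp [Matrix.mul_apply, Fin.sum_univ_two] at w00 w01 w10 w11
  have htri : B.BlockTriangular id := by
    intro a b hab
    simp only [id_eq] at hab
    fin_cases a <;> fin_cases b <;> simp at hab <;>
      simp [← hB, Matrix.mul_apply, Fin.sum_univ_seven, blk, z30, z31, z32, z40, z41, z42, z43, z50, z51, z52, z53, z60, z61, z62, z63, z64, z65, z10, z20, q33, q66, q44, q45, q54, q55, w10]
  have hε : A 0 0 = 1 := by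
    have hBd : B.det = 1 := by
      rw [hBeq, inFrame_det, mt_mul, Matrix.det_mul, hd, hdh, mul_one]
    rw [Matrix.det_of_upperTriangular htri, Fin.prod_univ_seven] at hBd
    simp [← hB, Matrix.mul_apply, Fin.sum_univ_seven, blk, z30, z31, z32, z40, z41, z42, z43, z50, z51, z52, z53, z60, z61, z62, z63, z64, z65, z10, z20, q33, q66, q44, q45, q54, q55, w00, w11] at hBd
    have hcube : A 0 0 * A 0 0 * A 0 0 = 1 := by linear_combination hBd
    revert hcube
    generalize A 0 0 = x
    revert x; decide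
  have hdiag : ∀ a, B a a = 1 := by
    intro a
    fin_cases a <;> simp [← hB, Matrix.mul_apply, Fin.sum_univ_seven, blk, z30, z31, z32, z40, z41, z42, z43, z50, z51, z52, z53, z60, z61, z62, z63, z64, z65, z10, z20, q33, q66, q44, q45, q54, q55, w00, w11, hε]
  have h9 : (g * h) ^ 9 = 1 := mt_injective (by
    rw [mt_one]
    exact inFrame_injective 3 (by rw [hp, ← hBeq, pow_nine htri hdiag, inFrame_one]))
  have := theta_of_pow (by decide) h9
  rwa [map_mul, hθh, mul_one] at this

end Cfsg.Agent.O73
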