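import Cfsg.Agent.OmegaSevenThree.Data

/-!
Invariants separating the six models.
-/

set_option autoImplicit false

namespace Cfsg.Agent.O73

open Matrix

variable {n m : Type*} [Fintype n] [Fintype m] [DecidableEq n] [DecidableEq m]

/-- The value `a` is taken by the quadratic form of the squared map. -/
def TwoVal (J L : Matrix n n K3) (a : K3) : Prop := ∃ v : n → K3, v ⬝ᵥ (J *ᵥ (L *ᵥ (L *ᵥ v))) = a

/-- The kernel of the squared map carries a non-zero alternating form. -/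
def Pairing (J L : Matrix n n K3) : Prop :=
  ∃ u w : n → K3, L *ᵥ (L *ᵥ u) = 0 ∧ L *ᵥ (L *ᵥ w) = 0 ∧ (L *ᵥ u) ⬝ᵥ (J *ᵥ w) ≠ 0

/-- The quadratic form of the squared map has a non-trivial zero. -/
def IsoTwo (J L : Matrix n n K3) : Prop :=
  ∃ v : n → K3, v ⬝ᵥ (J *ᵥ (L *ᵥ (L *ᵥ v))) = 0 ∧ L *ᵥ (L *ᵥ v) ≠ 0

/-- All invariants. -/
def SameInv (J L : Matrix n n K3) (G M : Matrix m m K3) : Prop :=
  (∀ a, TwoVal J L a ↔ TwoVal G M a) ∧ (Pairing J L ↔ Pairing G M) ∧ (IsoTwo J L ↔ IsoTwo G M)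

theorem sameInv_of_frame (J L : Matrix n n K3) (G M : Matrix m m K3) (P : Matrix n m K3)
    (R : Matrix m n K3) (hPR : P * R = 1) (hRP : R * P = 1) (hG : P.transpose * J * P = G)
    (ε : K3) (hε : ε ≠ 0) (hL : L * P = ε • (P * M)) : SameInv J L G M := by
  have hsq : ε * ε = 1 := K3.sq hε
  have h1 : ∀ x, L *ᵥ (P *ᵥ x) = ε • (P *ᵥ (M *ᵥ x)) := fun x => by
    rw [Matrix.mulVec_mulVec, hL, Matrix.smul_mulVec, ← Matrix.mulVec_mulVec]
  have h2 : ∀ x, L *ᵥ (L *ᵥ (P *ᵥ x)) = P *ᵥ (M *ᵥ (M *ᵥ x)) := fun x => by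
    rw [h1, Matrix.mulVec_smul, h1, smul_smul, hsq, one_smul]
  have hd : ∀ x y, (P *ᵥ x) ⬝ᵥ (J *ᵥ (P *ᵥ y)) = x ⬝ᵥ (G *ᵥ y) := fun x y => by
    rw [← hG, ← Matrix.mulVec_mulVec, ← Matrix.mulVec_mulVec, Matrix.dotProduct_mulVec x,
      Matrix.vecMul_transpose]
  have hs : ∀ v, ∃ x, v = P *ᵥ x := fun v =>
    ⟨R *ᵥ v, by rw [Matrix.mulVec_mulVec, hPR, Matrix.one_mulVec]⟩
  have hinj : ∀ x, P *ᵥ x = 0 ↔ x = 0 := fun x =>
    ⟨fun h => by rw [← Matrix.one_mulVec x, ← hRP, ← Matrix.mulVec_mulVec, h, Matrix.mulVec_zero],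
     fun h => by rw [h, Matrix.mulVec_zero]⟩
  refine ⟨fun a => ⟨?_, ?_⟩, ⟨?_, ?_⟩, ⟨?_, ?_⟩⟩
  · rintro ⟨v, hv⟩
    obtain ⟨x, rfl⟩ := hs v
    exact ⟨x, by rwa [h2, hd] at hv⟩
  · rintro ⟨x, hx⟩
    exact ⟨P *ᵥ x, by rwa [h2, hd]⟩
  · rintro ⟨u, w, hu, hw, huw⟩
    obtain ⟨x, rfl⟩ := hs u
    obtain ⟨y, rfl⟩ := hs w
    rw [h2, hinj] at hu hw
    rw [h1, smul_dotProduct, hd, smul_eq_mul] at huw
    exact ⟨x, y, hu, hw, fun h => huw (by rw [h, mul_zero])⟩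
  · rintro ⟨x, y, hx, hy, hxy⟩
    refine ⟨P *ᵥ x, P *ᵥ y, by rw [h2, hx, Matrix.mulVec_zero], by rw [h2, hy, Matrix.mulVec_zero], ?_⟩
    rw [h1, smul_dotProduct, hd, smul_eq_mul]
    exact mul_ne_zero hε hxy
  · rintro ⟨v, hv, hv'⟩
    obtain ⟨x, rfl⟩ := hs v
    rw [h2, hd] at hv
    rw [h2, Ne, hinj] at hv'
    exact ⟨x, hv, hv'⟩
  · rintro ⟨x, hx, hx'⟩
    exact ⟨P *ᵥ x, by rwa [h2, hd], by rwa [h2, Ne, hinj]⟩

theorem not_twoVal_zero : ∀ a : K3, a ≠ 0 → ¬ TwoVal (gramM 0) (shiftM 0) a := by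
  rintro a ha ⟨v, hv⟩
  simp [gramM, shiftM, dotProduct, Matrix.mulVec, Fin.sum_univ_seven] at hv
  exact ha hv.symm

theorem not_twoVal_one : ¬ TwoVal (gramM 1) (shiftM 1) (-1) := by
  rintro ⟨v, hv⟩
  simp [gramM, shiftM, dotProduct, Matrix.mulVec, Fin.sum_univ_seven] at hv
  revert hv
  generalize v 2 = x
  revert x; decide

theorem not_twoVal_two : ¬ TwoVal (gramM 2) (shiftM 2) 1 := by
  rintro ⟨v, hv⟩
  simp [gramM, shiftM, dotProduct, Matrix.mulVec, Fin.sum_univ_seven] at hv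
  revert hv
  generalize v 2 = x
  revert x; decide

theorem not_twoVal_three : ¬ TwoVal (gramM 3) (shiftM 3) (-1) := by
  rintro ⟨v, hv⟩
  simp [gramM, shiftM, dotProduct, Matrix.mulVec, Fin.sum_univ_seven] at hv
  revert hv
  generalize v 6 = x
  revert x; decide

theorem not_pairing_one : ¬ Pairing (gramM 1) (shiftM 1) := by
  rintro ⟨u, w, hu, hw, huw⟩
  have hu2 := congrFun hu 0
  have hw2 := congrFun hw 0
  simp [shiftM, dotProduct, Matrix.mulVec, Fin.sum_univ_seven] at hu2 hw2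
  simp [gramM, shiftM, dotProduct, Matrix.mulVec, Fin.sum_univ_seven, hu2, hw2] at huw

theorem not_isoTwo_four : ¬ IsoTwo (gramM 4) (shiftM 4) := by
  rintro ⟨v, hv, hv'⟩
  simp [gramM, shiftM, dotProduct, Matrix.mulVec, Fin.sum_univ_seven] at hv
  obtain ⟨h4, h5⟩ : v 4 = 0 ∧ v 5 = 0 := by
    revert hv
    generalize v 4 = x
    generalize v 5 = y
    revert x y; decide
  refine hv' (funext fun i => ?_)
  fin_cases i <;> simp [shiftM, dotProduct, Matrix.mulVec, Fin.sum_univ_seven, h4, h5]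

theorem models_distinct : ∀ i j : Fin 6,
    SameInv (gramM i) (shiftM i) (gramM j) (shiftM j) → i = j := by
  have t1 : ∀ i : Fin 6, i ≠ 0 → i ≠ 2 → TwoVal (gramM i) (shiftM i) 1 := by
    intro i
    fin_cases i <;> intro h0 h2 <;> first
      | exact absurd rfl h0 | exact absurd rfl h2
      | exact ⟨![0, 0, 1, 0, 0, 0, 0], by decide +kernel⟩
      | exact ⟨![0, 0, 0, 0, 0, 0, 1], by decide +kernel⟩
      | exact ⟨![0, 0, 0, 0, 1, 0, 0], by decide +kernel⟩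
  have tm : ∀ i : Fin 6, i = 2 ∨ i = 4 ∨ i = 5 → TwoVal (gramM i) (shiftM i) (-1) := by
    rintro i (rfl | rfl | rfl)
    · exact ⟨![0, 0, 1, 0, 0, 0, 0], by decide +kernel⟩
    · exact ⟨![0, 0, 0, 0, 1, 1, 0], by decide +kernel⟩
    · exact ⟨![0, 0, 0, 0, 0, 1, 0], by decide +kernel⟩
  have p3 : Pairing (gramM 3) (shiftM 3) :=
    ⟨![0, 0, 0, 0, 1, 0, 0], ![0, 0, 0, 0, 0, 1, 0], by decide +kernel, by decide +kernel,
      by decide +kernel⟩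
  have i5 : IsoTwo (gramM 5) (shiftM 5) :=
    ⟨![0, 0, 0, 0, 1, 1, 0], by decide +kernel, by decide +kernel⟩
  intro i j ⟨hv, hp, hi⟩
  have h1 := hv 1
  have hm := hv (-1)
  have hone : ∀ k : Fin 6, k = 0 ∨ k = 2 ↔ ¬ TwoVal (gramM k) (shiftM k) 1 := by
    intro k
    constructor
    · rintro (rfl | rfl)
      exacts [not_twoVal_zero 1 one_ne_zero, not_twoVal_two]
    · intro h
      by_contra hk
      push Not at hk
      exact h (t1 k hk.1 hk.2)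
  have hmone : ∀ k : Fin 6, k = 0 ∨ k = 1 ∨ k = 3 ↔ ¬ TwoVal (gramM k) (shiftM k) (-1) := by
    intro k
    constructor
    · rintro (rfl | rfl | rfl)
      exacts [not_twoVal_zero (-1) (by decide), not_twoVal_one, not_twoVal_three]
    · intro h
      by_contra hk
      exact h (tm k (by revert hk; clear * -; revert k; decide))
  have e1 : (i = 0 ∨ i = 2) ↔ (j = 0 ∨ j = 2) := by rw [hone, hone, h1]
  have e2 : (i = 0 ∨ i = 1 ∨ i = 3) ↔ (j = 0 ∨ j = 1 ∨ j = 3) := by rw [hmone, hmone, hm]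
  have e3 : ¬ (i = 1 ∧ j = 3) ∧ ¬ (i = 3 ∧ j = 1) :=
    ⟨fun ⟨a, b⟩ => not_pairing_one (by subst a b; exact hp.2 p3),
     fun ⟨a, b⟩ => not_pairing_one (by subst a b; exact hp.1 p3)⟩
  have e4 : ¬ (i = 4 ∧ j = 5) ∧ ¬ (i = 5 ∧ j = 4) :=
    ⟨fun ⟨a, b⟩ => not_isoTwo_four (by subst a b; exact hi.2 i5),
     fun ⟨a, b⟩ => not_isoTwo_four (by subst a b; exact hi.1 i5)⟩
  revert e1 e2 e3 e4
  clear * -
  revert i j; decide

end Cfsg.Agent.O73
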