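import Cfsg.Agent.OmegaSevenThree.Reps
import Cfsg.Agent.OmegaSevenThree.Invariant

/-!
The seven classes of elements of order three in `Omega(7, 3)`.
-/

set_option autoImplicit false

namespace Cfsg.Agent.O73

open Matrix

/-- The logarithm of an element of order three. -/
def lg (x : OG) : Matrix Ix Ix K3 := mt x * mt x - mt x

theorem lg_conj (g x : OG) : lg (g * x * g⁻¹) = mt g * lg x * mt g⁻¹ := by
  simp only [lg, mt_mul, mul_sub, sub_mul, mul_assoc]
  rw [← mul_assoc (mt g⁻¹) (mt g), mt_inv_mul, one_mul]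

theorem lg_inv {x : OG} (hx : x ^ 3 = 1) : lg x⁻¹ = -lg x := by
  have h2 : x⁻¹ = x * x := inv_eq_of_mul_eq_one_right (by rw [← hx, pow_succ, _root_.sq, mul_assoc])
  have h4 : x * x * (x * x) = x := by rw [← h2]; nth_rewrite 1 [h2]; group
  rw [lg, ← mt_mul, lg, ← mt_mul, h2, h4, neg_sub]

theorem mt_cube {x : OG} (hx : x ^ 3 = 1) : mt x * mt x * mt x = 1 := by
  have := congrArg mt hx
  rwa [pow_succ, _root_.sq, mt_mul, mt_mul, mt_one] at this

theorem three_zero : (3 : Matrix Ix Ix K3) = 0 := by decide +kernel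

theorem exp_lg {x : OG} (hx : x ^ 3 = 1) : 1 + lg x - lg x * lg x = mt x := by
  have h := mt_cube hx
  set X := mt x
  have h4 : X * X * (X * X) = X := by rw [← mul_assoc, h, one_mul]
  have h3' : X * (X * X) = 1 := by rw [← mul_assoc, h]
  have e : lg x * lg x = X * X * (X * X) - X * X * X - X * (X * X) + X * X := by
    simp only [lg]; noncomm_ring
  rw [e, h4, h, h3']
  show 1 + (X * X - X) - (X - 1 - 1 + X * X) = X
  have h3 : (3 : Matrix Ix Ix K3) * (1 - X) = 0 := by rw [three_zero, zero_mul]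
  linear_combination (norm := noncomm_ring) h3

theorem lg_skew {x : OG} (hx : x ^ 3 = 1) : (lg x).transpose * Jf = -(Jf * lg x) := by
  have key : ∀ y : OG, (mt y).transpose * Jf = Jf * mt y⁻¹ := fun y => by
    rw [inv_mt, ← mul_assoc, ← mul_assoc, Jf_sq, one_mul]
  have h2 : x⁻¹ = x * x := inv_eq_of_mul_eq_one_right (by rw [← hx, pow_succ, _root_.sq, mul_assoc])
  rw [lg, ← mt_mul, Matrix.transpose_sub, sub_mul, key, key]
  conv_lhs => rw [_root_.mul_inv_rev, h2, show x * x * (x * x) = x by rw [← h2]; nth_rewrite 1 [h2]; group]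
  rw [mul_sub, neg_sub]

theorem lg_cube {x : OG} (hx : x ^ 3 = 1) : lg x * lg x * lg x = 0 := by
  have h := mt_cube hx
  set X := mt x
  have e : lg x * lg x * lg x = (X * X * X) * (X * X * X - (3 : Matrix Ix Ix K3) * (X * X) +
      (3 : Matrix Ix Ix K3) * X - 1) := by
    simp only [lg]; noncomm_ring
  rw [e, h, three_zero, zero_mul, zero_mul, sub_zero, add_zero, sub_self, mul_zero]

theorem lg_ne_zero {x : OG} (hx : x ^ 3 = 1) (h1 : x ≠ 1) : lg x ≠ 0 := fun h0 =>
  h1 (mt_injective (by rw [mt_one, ← exp_lg hx, h0, zero_mul, add_zero, sub_zero]))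

/-- The model elements. -/
def repEl (k : Fin 6) : OG :=
  mkO (1 + nilM k - nilM k * nilM k) (by revert k; decide +kernel)

theorem repEl_cube : ∀ k, repEl k ^ 3 = 1 := fun k => mt_injective (by
  rw [mt_pow, mt_one]; show (1 + nilM k - nilM k * nilM k) ^ 3 = 1; revert k; decide +kernel)

theorem lg_repEl : ∀ k, lg (repEl k) = nilM k := fun k => by
  show (1 + nilM k - nilM k * nilM k) * (1 + nilM k - nilM k * nilM k)
    - (1 + nilM k - nilM k * nilM k) = nilM k
  revert k; decide +kernel

theorem coframe_gram : ∀ k, (coframeM k).transpose * gramM k * coframeM k = Jf := by decide +kernel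

theorem mt_eq_of_lg {x y : OG} (hx : x ^ 3 = 1) (hy : y ^ 3 = 1) (h : lg x = lg y) : x = y :=
  mt_injective (by rw [← exp_lg hx, ← exp_lg hy, h])

theorem exists_conj_rep {x : OG} (hx : x ^ 3 = 1) (h1 : x ≠ 1) :
    ∃ k, ∃ g : OG, x = g * repEl k * g⁻¹ := by
  obtain ⟨k, P, hP, hLP⟩ := normal_form (lg x) (lg_skew hx) (lg_cube hx) (lg_ne_zero hx h1)
  have hgram : (P * coframeM k).transpose * Jf * (P * coframeM k) = Jf := by
    rw [Matrix.transpose_mul, show (coframeM k).transpose * P.transpose * Jf * (P * coframeM k)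
      = (coframeM k).transpose * (P.transpose * Jf * P) * coframeM k by simp only [Matrix.mul_assoc],
      hP, coframe_gram]
  have hmt : mt (mkO (P * coframeM k) hgram) = P * coframeM k := rfl
  refine ⟨k, mkO (P * coframeM k) hgram, mt_eq_of_lg hx
    (by rw [conj_pow, repEl_cube, mul_one, mul_inv_cancel]) ?_⟩
  rw [lg_conj, lg_repEl, hmt]
  calc lg x = lg x * (mt (mkO (P * coframeM k) hgram) * mt (mkO (P * coframeM k) hgram)⁻¹) := by
        rw [mt_mul_inv, mul_one]
    _ = P * coframeM k * nilM k * mt (mkO (P * coframeM k) hgram)⁻¹ := by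
        rw [← mul_assoc, hmt]
        congr 1
        simp only [nilM, ← Matrix.mul_assoc, hLP]
        rw [Matrix.mul_assoc P (coframeM k) (frameM k), coframe_mul_frame, Matrix.mul_one]

theorem theta_repEl (k : Fin 6) : theta (repEl k) = 1 :=
  theta_of_pow (n := 3) (by decide) (repEl_cube k)

/-- An isometry with determinant minus one commuting with everything. -/
def negEl : OG := mkO (-1) (by decide +kernel)

theorem negEl_comm (g : OG) : negEl * g = g * negEl := mt_injective (by
  simp [mt_mul, negEl, mt_mkO])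

theorem theta_negEl : (theta negEl).1 = -1 := by
  have h := theta_fst negEl
  rcases Int.units_eq_one_or (theta negEl).1 with e | e
  · rw [e, if_neg] at h
    · simp at h
    · rw [show mt negEl = (-1 : Matrix Ix Ix K3) from rfl, Matrix.det_neg, Matrix.det_one]
      decide +kernel
  · exact e

/-- The seven representatives. -/
def sevenEl : Fin 7 → OG :=
  Fin.snoc repEl (commEl 3 * repEl 3 * (commEl 3)⁻¹)

/-- The model of a representative. -/
def model : Fin 7 → Fin 6 := ![0, 1, 2, 3, 4, 5, 3]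

theorem sevenEl_eq (i : Fin 7) :
    ∃ t : OG, sevenEl i = t * repEl (model i) * t⁻¹ := by
  refine Fin.lastCases ⟨commEl 3, ?_⟩ (fun k => ⟨1, ?_⟩) i
  · rw [sevenEl, Fin.snoc_last]; rfl
  · rw [sevenEl, Fin.snoc_castSucc, one_mul, inv_one, mul_one,
      show model k.castSucc = k by revert k; decide]

theorem sevenEl_order (i : Fin 7) : orderOf (sevenEl i) = 3 := by
  obtain ⟨t, ht⟩ := sevenEl_eq i
  rw [ht]
  refine orderOf_eq_prime (by rw [conj_pow, repEl_cube, mul_one, mul_inv_cancel]) fun h => ?_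
  rw [mul_inv_eq_one, mul_eq_left] at h
  have := lg_repEl (model i)
  rw [h] at this
  exact absurd this (by simp only [lg, mt_one]; clear h ht t; revert i; decide +kernel)

theorem sevenEl_cube (i : Fin 7) : sevenEl i ^ 3 = 1 := by
  have h := pow_orderOf_eq_one (sevenEl i)
  rwa [sevenEl_order] at h

theorem theta_sevenEl (i : Fin 7) : theta (sevenEl i) = 1 :=
  theta_of_pow (n := 3) (by decide) (sevenEl_cube i)

theorem exists_conj_seven {x : OG} (hx : x ^ 3 = 1) (h1 : x ≠ 1) :
    ∃ i, ∃ w : OG, theta w = 1 ∧ x = w * sevenEl i * w⁻¹ := by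
  obtain ⟨k, g, hg⟩ := exists_conj_rep hx h1
  obtain ⟨g, hd, hg⟩ : ∃ g : OG, (theta g).1 = 1 ∧ x = g * repEl k * g⁻¹ := by
    rcases Int.units_eq_one_or (theta g).1 with e | e
    · exact ⟨g, e, hg⟩
    · refine ⟨negEl * g, by rw [map_mul, Prod.fst_mul, theta_negEl, e]; decide, ?_⟩
      rw [hg, _root_.mul_inv_rev, negEl_comm g]
      calc g * repEl k * g⁻¹ = g * (repEl k * negEl) * negEl⁻¹ * g⁻¹ := by group
        _ = g * (negEl * repEl k) * negEl⁻¹ * g⁻¹ := by rw [negEl_comm]
        _ = g * negEl * repEl k * (negEl⁻¹ * g⁻¹) := by group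
        _ = g * negEl * repEl k * (g⁻¹ * negEl⁻¹) := by
          rw [← _root_.mul_inv_rev g negEl, ← negEl_comm g, _root_.mul_inv_rev]
  rcases Int.units_eq_one_or (theta g).2 with e | e
  · exact ⟨k.castSucc, g, Prod.ext hd e, by rw [sevenEl, Fin.snoc_castSucc]; exact hg⟩
  by_cases hk : k = 3
  · subst hk
    refine ⟨Fin.last 6, g * (commEl 3)⁻¹, ?_, ?_⟩
    · rw [map_mul, map_inv, theta_commEl]
      exact Prod.ext (by simp [hd]) (by simp [e])
    · rw [sevenEl, Fin.snoc_last, hg]; group
  · refine ⟨k.castSucc, g * commEl k, ?_, ?_⟩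
    · rw [map_mul, theta_commEl]
      exact Prod.ext (by simp [hd]) (by simp [e])
    · have hcomm : commEl k * repEl k = repEl k * commEl k := mt_injective (by
        show reflProd (commVecs k) * (1 + nilM k - nilM k * nilM k)
          = (1 + nilM k - nilM k * nilM k) * reflProd (commVecs k)
        have h := nilM_commEl k hk
        have h' : reflProd (commVecs k) * (nilM k * nilM k)
            = nilM k * nilM k * reflProd (commVecs k) := by
          rw [← mul_assoc, h, mul_assoc, h, mul_assoc]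
        rw [mul_sub, sub_mul, mul_add, add_mul, mul_one, one_mul, h, h'])
      rw [sevenEl, Fin.snoc_castSucc, hg, _root_.mul_inv_rev,
        show g * commEl k * repEl k = g * repEl k * commEl k by rw [mul_assoc, hcomm, ← mul_assoc]]
      group

theorem sameInv_frame (k : Fin 6) : SameInv Jf (nilM k) (gramM k) (shiftM k) :=
  sameInv_of_frame Jf (nilM k) (gramM k) (shiftM k) (frameM k) (coframeM k) (frame_mul_coframe k)
    (coframe_mul_frame k) (frame_gram k) 1 one_ne_zero (by
      rw [one_smul, nilM, Matrix.mul_assoc, coframe_mul_frame, Matrix.mul_one])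

theorem model_unique {k k' : Fin 6} {g : OG} {y : OG}
    (hy : y = repEl k' ∨ y = (repEl k')⁻¹) (h : g * repEl k * g⁻¹ = y) : k = k' := by
  obtain ⟨ε, hε, hl⟩ : ∃ ε : K3, ε ≠ 0 ∧ lg y = ε • nilM k' := by
    rcases hy with rfl | rfl
    · exact ⟨1, one_ne_zero, by rw [lg_repEl, one_smul]⟩
    · exact ⟨-1, by decide, by rw [lg_inv (repEl_cube k'), lg_repEl, neg_smul, one_smul]⟩
  rw [← h, lg_conj, lg_repEl] at hl
  have hmul : nilM k' * mt g = ε • (mt g * nilM k) := by
    have e : (ε • nilM k') * mt g = mt g * nilM k := by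
      rw [← hl, mul_assoc, mt_inv_mul, mul_one]
    rw [← e, smul_mul_assoc, smul_smul, K3.sq hε, one_smul]
  have hsame := sameInv_of_frame Jf (nilM k') Jf (nilM k) (mt g) (mt g⁻¹) (mt_mul_inv g)
    (mt_inv_mul g) (mt_gram g) ε hε hmul
  have hk := sameInv_frame k
  have hk' := sameInv_frame k'
  exact models_distinct k k' ⟨fun a => ((hk.1 a).symm.trans (hsame.1 a).symm).trans (hk'.1 a),
    (hk.2.1.symm.trans hsame.2.1.symm).trans hk'.2.1,
    (hk.2.2.symm.trans hsame.2.2.symm).trans hk'.2.2⟩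

theorem no_conj_three {g : OG} (hg : theta g = (1, -1)) :
    g * repEl 3 * g⁻¹ ≠ repEl 3 ∧ g * repEl 3 * g⁻¹ ≠ (repEl 3)⁻¹ := by
  have key : ∀ g : OG, theta g = (1, -1) → lg (g * repEl 3 * g⁻¹) ≠ nilM 3 := by
    intro g hg h
    have hd : (mt g).det = 1 := by
      have := theta_fst g
      rw [hg] at this
      by_contra hne
      rw [if_neg hne] at this
      simp at this
    rw [lg_conj, lg_repEl] at h
    have hc : mt g * nilM 3 = nilM 3 * mt g := by
      conv_rhs => rw [← h, mul_assoc, mt_inv_mul, mul_one]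
    have := theta_centralizer hc hd
    rw [hg] at this
    exact absurd this (by decide)
  refine ⟨fun h => key g hg (by rw [h, lg_repEl]), fun h => ?_⟩
  have hc : mt revEl * nilM 3 = -(nilM 3 * mt revEl) := nilM_revEl
  refine key (revEl * g) (by rw [map_mul, theta_revEl, hg, one_mul]) ?_
  rw [show revEl * g * repEl 3 * (revEl * g)⁻¹ = revEl * (g * repEl 3 * g⁻¹) * revEl⁻¹ by group, h,
    lg_conj, lg_inv (repEl_cube 3), lg_repEl, mul_neg, neg_mul, hc, neg_mul, neg_neg, mul_assoc,
    mt_mul_inv, mul_one]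

theorem seven_distinct {i j : Fin 7} {w : OG} (hw : theta w = 1)
    (h : w * sevenEl i * w⁻¹ = sevenEl j ∨ w * sevenEl i * w⁻¹ = (sevenEl j)⁻¹) : i = j := by
  obtain ⟨t, ht⟩ := sevenEl_eq i
  obtain ⟨t', ht'⟩ := sevenEl_eq j
  have hm : model i = model j := by
    refine model_unique (g := t'⁻¹ * w * t) (y := t'⁻¹ * (w * sevenEl i * w⁻¹) * t') ?_ (by
      rw [ht]; group)
    rcases h with h | h <;> rw [h, ht']
    · left; group
    · right; group
  have hcases : i = j ∨ (i = 3 ∧ j = 6) ∨ (i = 6 ∧ j = 3) := by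
    clear h ht ht'; revert i j; decide
  rcases hcases with h' | ⟨rfl, rfl⟩ | ⟨rfl, rfl⟩
  · exact h'
  all_goals exfalso
  all_goals
    rw [show sevenEl 3 = repEl 3 from rfl,
      show sevenEl 6 = commEl 3 * repEl 3 * (commEl 3)⁻¹ from rfl] at h
  · obtain ⟨n1, n2⟩ := no_conj_three (g := (commEl 3)⁻¹ * w) (by
      rw [map_mul, map_inv, theta_commEl, hw, mul_one]; decide)
    rcases h with h | h
    · exact n1 (by
        rw [show (commEl 3)⁻¹ * w * repEl 3 * ((commEl 3)⁻¹ * w)⁻¹
          = (commEl 3)⁻¹ * (w * repEl 3 * w⁻¹) * commEl 3 by group, h]; group)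
    · exact n2 (by
        rw [show (commEl 3)⁻¹ * w * repEl 3 * ((commEl 3)⁻¹ * w)⁻¹
          = (commEl 3)⁻¹ * (w * repEl 3 * w⁻¹) * commEl 3 by group, h]; group)
  · obtain ⟨n1, n2⟩ := no_conj_three (g := w * commEl 3) (by
      rw [map_mul, theta_commEl, hw, one_mul])
    have e : w * commEl 3 * repEl 3 * (w * commEl 3)⁻¹
        = w * (commEl 3 * repEl 3 * (commEl 3)⁻¹) * w⁻¹ := by group
    rcases h with h | h
    · exact n1 (e.trans h)
    · exact n2 (e.trans h)

end Cfsg.Agent.O73
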