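import Cfsg.Agent.OmegaSevenThree.Normal
import Cfsg.Agent.Forms.OmegaCrit
import Cfsg.Agent.RecogA.NineEightOdd

/-!
The isometry group of the seven-dimensional form over three elements, as matrices.
-/

set_option autoImplicit false

namespace Cfsg.Agent.O73

open Matrix
open Cfsg.Agent.Classical (oddQF oddQF_apply OQ BNondeg)

theorem normal_form (L : Matrix Ix Ix K3) (hs : L.transpose * Jf = -(Jf * L)) (h3 : L * L * L = 0)
    (hne : L ≠ 0) :
    ∃ k, ∃ P : Matrix Ix (Fin 7) K3, P.transpose * Jf * P = gramM k ∧ L * P = P * shiftM k := by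
  classical
  let B : LinearMap.BilinForm K3 (Ix → K3) := Matrix.toBilin' Jf
  let ℓ : (Ix → K3) →ₗ[K3] (Ix → K3) := Matrix.toLin' L
  have hB : ∀ u v, B u v = u ⬝ᵥ (Jf *ᵥ v) := fun u v => Matrix.toBilin'_apply' Jf u v
  have hJt : Jf.transpose = Jf := by decide +kernel
  have hp : SkewPair B ℓ := by
    refine ⟨fun u v => ?_, fun u v => ?_, fun u => ?_⟩
    · rw [hB, hB, dotProduct_comm u, ← Matrix.vecMul_transpose, hJt, Matrix.dotProduct_mulVec]
    · simp only [hB, ℓ, Matrix.toLin'_apply]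
      rw [← Matrix.vecMul_transpose, ← Matrix.dotProduct_mulVec, Matrix.mulVec_mulVec, hs,
        Matrix.neg_mulVec, dotProduct_neg, Matrix.mulVec_mulVec]
    · simp only [ℓ, Matrix.toLin'_apply, Matrix.mulVec_mulVec]
      rw [show L * (L * L) = L * L * L from (mul_assoc _ _ _).symm, h3, Matrix.zero_mulVec]
  have hnd : ∀ u, (∀ v, B u v = 0) → u = 0 := fun u hu => by
    funext i
    have hJJ : Jf * Jf = 1 := by decide +kernel
    have h := hu (Jf *ᵥ Pi.single i 1)
    rw [hB, Matrix.mulVec_mulVec, hJJ, Matrix.one_mulVec] at h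
    simpa using h
  have h7 : Module.finrank K3 (Ix → K3) = 7 := by rw [Module.finrank_pi]; rfl
  have hne' : ∃ v, ℓ v ≠ 0 := by
    by_contra hn
    push Not at hn
    exact hne (Matrix.toLin'.map_eq_zero_iff.1 (LinearMap.ext fun v => hn v))
  have key : ∀ G M : Matrix (Fin 7) (Fin 7) K3, G.det ≠ 0 → IsFrame B ℓ G M →
      G.det = 1 ∧ ∃ P : Matrix Ix (Fin 7) K3, P.transpose * Jf * P = G ∧ L * P = P * M := by
    rintro G M hd ⟨f, hf, hfl⟩
    let P : Matrix Ix (Fin 7) K3 := Matrix.of fun i j => f j i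
    have hg : P.transpose * Jf * P = G := by
      ext a b
      rw [← hf a b, hB, Matrix.mul_assoc]
      rfl
    refine ⟨?_, P, hg, ?_⟩
    · set P' : Matrix Ix Ix K3 := P.submatrix id posEquiv with hP'
      have h' : P'.transpose * Jf * P' = G.submatrix posEquiv posEquiv := by
        rw [← hg]; rfl
      have hdet := congrArg Matrix.det h'
      rw [Matrix.det_mul, Matrix.det_mul, Matrix.det_transpose, det_Jf,
        Matrix.det_submatrix_equiv_self, mul_one] at hdet
      rw [← hdet] at hd ⊢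
      exact K3.sq fun h0 => hd (by rw [h0, mul_zero])
    · ext i j
      have := congrFun (hfl j) i
      simp only [ℓ, Matrix.toLin'_apply, Finset.sum_apply, Pi.smul_apply, smul_eq_mul] at this
      rw [Matrix.mul_apply, Matrix.mul_apply]
      calc ∑ x, L i x * P x j = (L *ᵥ f j) i := rfl
        _ = ∑ x, M x j * f x i := this
        _ = ∑ x, P i x * M x j := Finset.sum_congr rfl fun x _ => mul_comm _ _
  rcases classify hp hnd h7 hne' with ⟨c, hc, h⟩ | ⟨a, c, ha, hc, h⟩ | ⟨a, ha, h⟩ | ⟨b, c, hb, hc, h⟩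
  · obtain ⟨h1, hP⟩ := key _ _ (by rw [det_gA]; exact hc) h
    rw [det_gA] at h1; subst h1
    exact ⟨0, by rwa [show gramM 0 = gA 1 by decide +kernel]⟩
  · obtain ⟨h1, hP⟩ := key _ _ (by rw [det_gB a c ha]; exact mul_ne_zero ha hc) h
    rw [det_gB a c ha] at h1
    obtain ⟨rfl, rfl⟩ | ⟨rfl, rfl⟩ : (a = 1 ∧ c = 1) ∨ (a = -1 ∧ c = -1) := by
      clear hP h; revert h1 ha hc; revert a c; decide
    · exact ⟨1, by rwa [show gramM 1 = gB 1 1 by decide +kernel]⟩
    · exact ⟨2, by rwa [show gramM 2 = gB (-1) (-1) by decide +kernel,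
        show shiftM 2 = shiftM 1 by decide +kernel]⟩
  · obtain ⟨h1, hP⟩ := key _ _ (by rw [det_gC a ha]; exact ha) h
    rw [det_gC a ha] at h1; subst h1
    exact ⟨3, by rwa [show gramM 3 = gC 1 by decide +kernel]⟩
  · obtain ⟨h1, hP⟩ := key _ _ (by rw [det_gD b c hb hc]; exact mul_ne_zero hb hc) h
    rw [det_gD b c hb hc] at h1
    obtain ⟨rfl, rfl⟩ | ⟨rfl, rfl⟩ : (b = 1 ∧ c = 1) ∨ (b = -1 ∧ c = -1) := by
      clear hP h; revert h1 hb hc; revert b c; decide
    · exact ⟨4, by rwa [show gramM 4 = gD 1 1 by decide +kernel]⟩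
    · exact ⟨5, by rwa [show gramM 5 = gD (-1) (-1) by decide +kernel,
        show shiftM 5 = shiftM 4 by decide +kernel]⟩

/-- The isometry group in question. -/
abbrev OG : Type := ↥(Cfsg.isometryGroup K3 (Cfsg.quadFormOdd 3 K3))

/-- The matrix of an isometry. -/
abbrev mt (g : OG) : Matrix Ix Ix K3 := ((g : GL Ix K3) : Matrix Ix Ix K3)

theorem mt_mul (g h : OG) : mt (g * h) = mt g * mt h := rfl

theorem mt_one : mt 1 = 1 := rfl

theorem mt_pow (g : OG) (n : ℕ) : mt (g ^ n) = mt g ^ n := by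
  induction n with
  | zero => rfl
  | succ n ih => rw [pow_succ, pow_succ, mt_mul, ih]

theorem mt_injective : Function.Injective mt := fun _ _ h => Subtype.ext (Units.ext h)

theorem mt_inv_mul (g : OG) : mt g⁻¹ * mt g = 1 := by rw [← mt_mul, inv_mul_cancel]; rfl

theorem mt_mul_inv (g : OG) : mt g * mt g⁻¹ = 1 := by rw [← mt_mul, mul_inv_cancel]; rfl

theorem Jf_transpose : Jf.transpose = Jf := by decide +kernel

theorem Jf_sq : Jf * Jf = 1 := by decide +kernel

theorem dot_Jf (v : Ix → K3) : v ⬝ᵥ (Jf *ᵥ v) = 2 * Cfsg.quadFormOdd 3 K3 v := by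
  simp [dotProduct, Matrix.mulVec, Jf, pos, Fintype.sum_sum_type, Fin.sum_univ_three,
    Cfsg.quadFormOdd]
  ring

theorem preserves_iff (M : Matrix Ix Ix K3) :
    (∀ v, Cfsg.quadFormOdd 3 K3 (M *ᵥ v) = Cfsg.quadFormOdd 3 K3 v) ↔
      M.transpose * Jf * M = Jf := by
  have hd : ∀ u v, (M *ᵥ u) ⬝ᵥ (Jf *ᵥ (M *ᵥ v)) = u ⬝ᵥ ((M.transpose * Jf * M) *ᵥ v) := by
    intro u v
    rw [← Matrix.mulVec_mulVec, ← Matrix.mulVec_mulVec, Matrix.dotProduct_mulVec u,
      Matrix.vecMul_transpose]
  constructor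
  · intro h
    refine Matrix.ext fun i j => ?_
    have hs : ∀ v, v ⬝ᵥ ((M.transpose * Jf * M) *ᵥ v) = v ⬝ᵥ (Jf *ᵥ v) := fun v => by
      rw [← hd, dot_Jf, dot_Jf, h]
    set A := M.transpose * Jf * M with hA
    have hAt : A.transpose = A := by
      rw [hA, Matrix.transpose_mul, Matrix.transpose_mul, Matrix.transpose_transpose, Jf_transpose,
        mul_assoc]
    have e := hs (Pi.single i 1 + Pi.single j 1)
    have ei := hs (Pi.single i 1)
    have ej := hs (Pi.single j 1)
    simp only [Matrix.mulVec_add, dotProduct_add, add_dotProduct,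
      Matrix.mulVec_single, MulOpposite.op_one, one_smul, single_dotProduct, one_mul,
      Matrix.col_apply] at e ei ej
    have hAij : A j i = A i j := (congrFun (congrFun hAt j) i).symm
    have hJij : Jf j i = Jf i j := (congrFun (congrFun Jf_transpose j) i).symm
    rw [hAij, hJij, ei, ej] at e
    have h2 : (2 : K3) * A i j = 2 * Jf i j := by linear_combination e
    exact mul_left_cancel₀ (by decide) h2
  · intro h v
    have := hd v v
    rw [h, dot_Jf, dot_Jf] at this
    exact mul_left_cancel₀ (by decide) this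

theorem mt_gram (g : OG) : (mt g).transpose * Jf * mt g = Jf :=
  (preserves_iff _).1 fun v => g.2 v v

/-- An isometry from a matrix. -/
def mkO (M : Matrix Ix Ix K3) (h : M.transpose * Jf * M = Jf) : OG :=
  ⟨⟨M, Jf * M.transpose * Jf,
      mul_eq_one_comm.1 (by
        rw [show Jf * M.transpose * Jf * M = Jf * (M.transpose * Jf * M) by simp only [mul_assoc],
          h, Jf_sq]),
      by rw [show Jf * M.transpose * Jf * M = Jf * (M.transpose * Jf * M) by simp only [mul_assoc],
          h, Jf_sq]⟩,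
    fun u _ => (preserves_iff M).2 h u⟩

theorem mt_mkO (M : Matrix Ix Ix K3) (h : M.transpose * Jf * M = Jf) : mt (mkO M h) = M := rfl

theorem inv_mt (g : OG) : mt g⁻¹ = Jf * (mt g).transpose * Jf := by
  refine (left_inv_eq_right_inv ?_ (mt_mul_inv g)).symm
  rw [show Jf * (mt g).transpose * Jf * mt g = Jf * ((mt g).transpose * Jf * mt g) by
    simp only [mul_assoc], mt_gram, Jf_sq]

theorem bNondeg : BNondeg (oddQF 3 K3) :=
  Classical.bNondeg_congr (Classical.oddEquiv 3) (fun x => Classical.oddEquiv_spec 3 x)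
    (Classical.bNondeg_hypExt 3 (RecogA.bNondeg_sq_odd (by decide)))

theorem qf_eq : (⇑(oddQF 3 K3)) = Cfsg.quadFormOdd 3 K3 := funext (oddQF_apply 3)

/-- The isometry group as the group of the quadratic form. -/
noncomputable def toOQ : OG ≃* OQ (oddQF 3 K3) :=
  Classical.isometryGroupEquiv _ (oddQF 3 K3) (oddQF_apply 3)

theorem notExceptional : OrthGen.NotExceptional (oddQF 3 K3) :=
  OrthGen.notExceptional_of_two_ne_zero (by decide)

/-- Dickson invariant and spinor norm of an isometry. -/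
noncomputable def theta : OG →* ℤˣ × ℤˣ :=
  (OrthGen.sgnHom bNondeg (OrthGen.RQ_eq_top bNondeg notExceptional)).comp toOQ.toMonoidHom

theorem finrank_ix : Module.finrank K3 (Ix → K3) = 7 := by rw [Module.finrank_pi]; rfl

theorem theta_ker : theta.ker = Cfsg.Omega K3 (Cfsg.quadFormOdd 3 K3) := by
  have h := OrthGen.commutator_eq_ker_sgnHom (Q := oddQF 3 K3) (by decide) bNondeg
    (by rw [finrank_ix]; decide) (OrthGen.RQ_eq_top bNondeg notExceptional)
  rw [theta, ← MonoidHom.comap_ker, ← h]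
  show (commutator (OQ (oddQF 3 K3))).comap toOQ.toMonoidHom = commutator OG
  rw [← Classical.map_commutator_top_of_equiv toOQ]
  exact Subgroup.comap_map_eq_self_of_injective toOQ.injective _

theorem mem_omega {g : OG} : g ∈ Cfsg.Omega K3 (Cfsg.quadFormOdd 3 K3) ↔ theta g = 1 := by
  rw [← theta_ker, MonoidHom.mem_ker]

theorem theta_sq (g : OG) : theta g * theta g = 1 :=
  Prod.ext (Int.units_mul_self _) (Int.units_mul_self _)

theorem theta_of_pow {g : OG} {n : ℕ} (hn : Odd n) (h : g ^ n = 1) : theta g = 1 := by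
  obtain ⟨j, rfl⟩ := hn
  have := congrArg theta h
  rw [map_one, pow_succ, pow_mul, map_mul, map_pow, map_pow, _root_.sq, theta_sq, one_pow,
    one_mul] at this
  exact this

theorem theta_reflections (g : OG) (l : List {x : Ix → K3 // oddQF 3 K3 x ≠ 0})
    (hg : mt g = (l.map fun x => Cfsg.reflectionMatrix (Cfsg.quadFormOdd 3 K3) x.1).prod)
    (hl : Even l.length) :
    (theta g).1 = 1 ∧ ((theta g).2 = 1 ↔ IsSquare (l.map fun x => oddQF 3 K3 x.1).prod) := by
  classical
  have he : toOQ g = Forms.refls (oddQF 3 K3) l := by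
    refine Subtype.ext (LinearEquiv.ext fun v => ?_)
    rw [← Forms.prod_reflectionMatrix_mulVec (oddQF 3 K3) l v]
    simp only [qf_eq]
    rw [← hg]; rfl
  constructor
  · show Classical.dickson (toOQ g) = 1
    rw [he, Forms.dickson_refls bNondeg, hl.neg_one_pow]
  · rw [← Forms.levelSign_refls (by decide) l, hl.neg_one_pow, ← he]
    rfl

theorem theta_fst (g : OG) : (((theta g).1 : ℤˣ) : ℤ) = if (mt g).det = 1 then 1 else -1 := by
  have h := OrthGen.det_eq_dickson (oddQF 3 K3) bNondeg notExceptional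
    ⟨(g : GL Ix K3), fun u v => by rw [qf_eq]; exact g.2 u v⟩
  have he : OrthGen.matEquiv (oddQF 3 K3) ⟨(g : GL Ix K3), fun u v => by rw [qf_eq]; exact g.2 u v⟩
      = toOQ g := Subtype.ext (LinearEquiv.ext fun _ => rfl)
  rw [he] at h
  show ((Classical.dickson (toOQ g) : ℤˣ) : ℤ) = _
  rw [show mt g = ((g : GL Ix K3) : Matrix Ix Ix K3) from rfl, h]
  rcases Int.units_eq_one_or (Classical.dickson (toOQ g)) with e | e <;> rw [e] <;> decide

end Cfsg.Agent.O73
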