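import Cfsg.Agent.OmegaSevenThree.Data

/-!
Normal forms of skew maps with cube zero on a seven-dimensional symmetric form over three elements.
-/

set_option autoImplicit false

namespace Cfsg.Agent.O73

open Module

/-- Gram matrix, two chains of length two. -/
def gA (c : K3) : Matrix (Fin 7) (Fin 7) K3 :=
  !![0,0,0,1,0,0,0; 0,0,-1,0,0,0,0; 0,-1,0,0,0,0,0; 1,0,0,0,0,0,0; 0,0,0,0,1,0,0; 0,0,0,0,0,1,0; 0,0,0,0,0,0,c]

/-- Gram matrix, one chain of length three. -/
def gB (a c : K3) : Matrix (Fin 7) (Fin 7) K3 :=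
  !![0,0,a,0,0,0,0; 0,-a,0,0,0,0,0; a,0,0,0,0,0,0; 0,0,0,1,0,0,0; 0,0,0,0,1,0,0; 0,0,0,0,0,1,0; 0,0,0,0,0,0,c]

/-- Gram matrix, chains of lengths three, two and two. -/
def gC (a : K3) : Matrix (Fin 7) (Fin 7) K3 :=
  !![0,0,0,0,0,0,a; 0,0,0,0,0,1,0; 0,0,0,0,-1,0,0; 0,0,0,-a,0,0,0; 0,0,-1,0,0,0,0; 0,1,0,0,0,0,0; a,0,0,0,0,0,0]

/-- Gram matrix, two chains of length three. -/
def gD (b c : K3) : Matrix (Fin 7) (Fin 7) K3 :=
  !![0,0,0,0,1,0,0; 0,0,0,0,0,b,0; 0,0,-1,0,0,0,0; 0,0,0,-b,0,0,0; 1,0,0,0,0,0,0; 0,b,0,0,0,0,0; 0,0,0,0,0,0,c]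

theorem det_mono {n : Type*} [Fintype n] [DecidableEq n] (G : Matrix n n K3) (σ : Equiv.Perm n)
    (d : n → K3) (h : G = (Matrix.diagonal d).submatrix σ id) :
    G.det = ((Equiv.Perm.sign σ : ℤ) : K3) * ∏ i, d i := by
  rw [h, Matrix.det_permute, Matrix.det_diagonal]

theorem det_gA : ∀ c : K3, (gA c).det = c := by
  intro c
  rw [det_mono (gA c) (Equiv.swap 0 3 * Equiv.swap 1 2) ![1, -1, -1, 1, 1, 1, c]
    (by revert c; decide +kernel)]
  revert c; decide +kernel

theorem det_gB : ∀ a c : K3, a ≠ 0 → (gB a c).det = a * c := by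
  intro a c
  rw [det_mono (gB a c) (Equiv.swap 0 2) ![a, -a, a, 1, 1, 1, c]
    (by revert a c; decide +kernel)]
  revert a c; decide +kernel

theorem det_gC : ∀ a : K3, a ≠ 0 → (gC a).det = a := by
  intro a
  rw [det_mono (gC a) (Equiv.swap 0 6 * Equiv.swap 1 5 * Equiv.swap 2 4) ![a, 1, -1, -a, -1, 1, a]
    (by revert a; decide +kernel)]
  revert a; decide +kernel

theorem det_gD : ∀ b c : K3, b ≠ 0 → c ≠ 0 → (gD b c).det = b * c := by
  intro b c
  rw [det_mono (gD b c) (Equiv.swap 0 4 * Equiv.swap 1 5) ![1, b, -1, -b, 1, b, c]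
    (by revert b c; decide +kernel)]
  revert b c; decide +kernel

theorem det_Jf : Jf.det = 1 := by
  rw [det_mono Jf ((Equiv.swap (.inr (.inl 0)) (.inr (.inr 0))) *
    (Equiv.swap (.inr (.inl 1)) (.inr (.inr 1))) * (Equiv.swap (.inr (.inl 2)) (.inr (.inr 2))))
    (fun i => if i = Sum.inl () then 2 else 1) (by decide +kernel)]
  decide +kernel

variable {V : Type*} [AddCommGroup V] [Module K3 V] [FiniteDimensional K3 V]
  {B : LinearMap.BilinForm K3 V} {ℓ : V →ₗ[K3] V}

/-- A frame with given Gram matrix on which the map acts by a given matrix. -/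
def IsFrame (B : LinearMap.BilinForm K3 V) (ℓ : V →ₗ[K3] V) (G M : Matrix (Fin 7) (Fin 7) K3) :
    Prop :=
  ∃ f : Fin 7 → V, (∀ i j, B (f i) (f j) = G i j) ∧ ∀ j, ℓ (f j) = ∑ i, M i j • f i

theorem classify (hp : SkewPair B ℓ) (hnd : ∀ x, (∀ y, B x y = 0) → x = 0)
    (h7 : finrank K3 V = 7) (hne : ∃ v, ℓ v ≠ 0) :
    (∃ c : K3, c ≠ 0 ∧ IsFrame B ℓ (gA c) (shiftM 0)) ∨
    (∃ a c : K3, a ≠ 0 ∧ c ≠ 0 ∧ IsFrame B ℓ (gB a c) (shiftM 1)) ∨
    (∃ a : K3, a ≠ 0 ∧ IsFrame B ℓ (gC a) (shiftM 3)) ∨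
    (∃ b c : K3, b ≠ 0 ∧ c ≠ 0 ∧ IsFrame B ℓ (gD b c) (shiftM 4)) := by
  have htop : Good B ℓ ⊤ 7 :=
    ⟨fun x _ h => hnd x fun y => h y trivial, fun x _ => trivial, by rw [finrank_top, h7]⟩
  have hone : ∀ v, B (ℓ (ℓ v)) v ≠ 0 → ∃ a, a ≠ 0 ∧ B (ℓ (ℓ v)) v = a :=
    fun v h => ⟨_, h, rfl⟩
  by_cases h1 : ∀ v, B (ℓ (ℓ v)) v = 0
  · left
    have hsq := sq_zero_of_isotropic hp htop fun v _ => h1 v
    obtain ⟨u, -, w, -, huw⟩ := exists_pair htop (fun h => hne.elim fun v hv => hv (h v trivial))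
    obtain ⟨-, x, -, y, -, hx2, hy2, hg, W, -, hW, hWo⟩ :=
      step4 hp htop (u := u) (w := w) trivial trivial (hsq u trivial) (hsq w trivial) huw
    have hz : ∀ v ∈ W, ℓ v = 0 := by
      by_contra hn
      obtain ⟨u', hu', w', hw', h'⟩ := exists_pair hW hn
      have := (step4 hp hW hu' hw' (hsq _ trivial) (hsq _ trivial) h').1
      omega
    obtain ⟨e, c, hc, he, heo, he1, hec⟩ := step0 hp (n := 2) (W := W) hW
    refine ⟨c, hc, ![ℓ x, ℓ y, x, y, e 0, e 1, e 2], fun i j => ?_, fun j => ?_⟩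
    · have a0 := fun v (hv : v ∈ W) => hWo v hv 0
      have a1 := fun v (hv : v ∈ W) => hWo v hv 1
      have a2 := fun v (hv : v ∈ W) => hWo v hv 2
      have a3 := fun v (hv : v ∈ W) => hWo v hv 3
      simp only [Fin.isValue, Matrix.cons_val_zero, Matrix.cons_val_one, Matrix.cons_val] at a0 a1 a2 a3
      fin_cases i <;> fin_cases j <;>
        simp [gA, a0, a1, a2, a3, he, heo, he1 0 (by decide), he1 1 (by decide),
          show B (e 2) (e 2) = c from hec] <;>
        first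
          | exact hg 0 0 | exact hg 0 1 | exact hg 0 2 | exact hg 0 3
          | exact hg 1 0 | exact hg 1 1 | exact hg 1 2 | exact hg 1 3
          | exact hg 2 0 | exact hg 2 1 | exact hg 2 2 | exact hg 2 3
          | exact hg 3 0 | exact hg 3 1 | exact hg 3 2 | exact hg 3 3
    · fin_cases j <;> simp [shiftM, Fin.sum_univ_seven, hx2, hy2, hz _ (he _)]
  · push Not at h1
    obtain ⟨v0, hv0⟩ := h1
    obtain ⟨v, a, ha, hva, hmax⟩ : ∃ v a, a ≠ 0 ∧ B (ℓ (ℓ v)) v = a ∧
        ((∀ x, B (ℓ (ℓ x)) x ≠ 1) ∨ a = 1) := by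
      by_cases h : ∃ x, B (ℓ (ℓ x)) x = 1
      · exact h.elim fun x hx => ⟨x, 1, one_ne_zero, hx, Or.inr rfl⟩
      · exact ⟨v0, _, hv0, rfl, Or.inl fun x hx => h ⟨x, hx⟩⟩
    obtain ⟨-, u, -, hua, hg, W, -, hW, hWo⟩ := step3 hp htop (v := v) trivial ha hva
    have a0 := fun v (hv : v ∈ W) => hWo v hv 0
    have a1 := fun v (hv : v ∈ W) => hWo v hv 1
    have a2 := fun v (hv : v ∈ W) => hWo v hv 2
    simp only [Fin.isValue, Matrix.cons_val_zero, Matrix.cons_val_one, Matrix.cons_val] at a0 a1 a2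
    by_cases h2 : ∀ x ∈ W, B (ℓ (ℓ x)) x = 0
    · have hsq := sq_zero_of_isotropic hp hW h2
      by_cases hz : ∀ x ∈ W, ℓ x = 0
      · obtain ⟨e, c, hc, he, heo, he1, hec⟩ := step0 hp (n := 3) (W := W) hW
        refine Or.inr (Or.inl ⟨a, c, ha, hc, ![ℓ (ℓ u), ℓ u, u, e 0, e 1, e 2, e 3], fun i j => ?_,
          fun j => ?_⟩)
        · fin_cases i <;> fin_cases j <;>
            simp [gB, a0, a1, a2, he, heo, he1 0 (by decide), he1 1 (by decide), he1 2 (by decide),
              show B (e 3) (e 3) = c from hec] <;>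
            first
              | exact hg 0 0 | exact hg 0 1 | exact hg 0 2
              | exact hg 1 0 | exact hg 1 1 | exact hg 1 2
              | exact hg 2 0 | exact hg 2 1 | exact hg 2 2
        · fin_cases j <;> simp [shiftM, Fin.sum_univ_seven, hp.cube, hz _ (he _)]
      · obtain ⟨u', hu', w', hw', h'⟩ := exists_pair hW hz
        obtain ⟨-, x, hx, y, hy, hx2, hy2, hg4, -⟩ :=
          step4 hp hW hu' hw' (hsq _ hu') (hsq _ hw') h'
        have hlx := hW.inv x hx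
        have hly := hW.inv y hy
        refine Or.inr (Or.inr (Or.inl ⟨a, ha, ![ℓ (ℓ u), ℓ x, ℓ y, ℓ u, x, y, u], fun i j => ?_,
          fun j => ?_⟩))
        · fin_cases i <;> fin_cases j <;>
            simp [gC, a0, a1, a2, hx, hy, hlx, hly] <;>
            first
              | exact hg 0 0 | exact hg 0 1 | exact hg 0 2
              | exact hg 1 0 | exact hg 1 1 | exact hg 1 2
              | exact hg 2 0 | exact hg 2 1 | exact hg 2 2
              | exact hg4 0 0 | exact hg4 0 1 | exact hg4 0 2 | exact hg4 0 3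
              | exact hg4 1 0 | exact hg4 1 1 | exact hg4 1 2 | exact hg4 1 3
              | exact hg4 2 0 | exact hg4 2 1 | exact hg4 2 2 | exact hg4 2 3
              | exact hg4 3 0 | exact hg4 3 1 | exact hg4 3 2 | exact hg4 3 3
        · fin_cases j <;> simp [shiftM, Fin.sum_univ_seven, hp.cube, hx2, hy2]
    · push Not at h2
      obtain ⟨w, hw, hwb⟩ := h2
      obtain ⟨-, w', hw', hwb', hg', W1, hW1W, hW1, hW1o⟩ := step3 hp hW hw hwb rfl
      have hlw' := hW.inv w' hw'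
      have hllw' := hW.inv _ hlw'
      have ha1 : a = 1 := by
        rcases hmax with hmax | hmax
        · have e1 := hmax u
          have e2 := hmax w'
          have e3 := hmax (u + w')
          simp only [map_add, LinearMap.add_apply, hua, hwb', (a0 w' hw').2,
            (a2 _ hllw').1] at e3
          rw [hua] at e1
          rw [hwb'] at e2
          revert e1 e2 e3 ha hwb
          generalize B (ℓ (ℓ w)) w = b
          clear * -
          revert a b; decide
        · exact hmax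
      obtain ⟨e, c, hc, he, -, -, hec⟩ := step0 hp (n := 0) (W := W1) hW1
      have hz := step1 hp (W := W1) hW1
      have b0 := fun v (hv : v ∈ W1) => hW1o v hv 0
      have b1 := fun v (hv : v ∈ W1) => hW1o v hv 1
      have b2 := fun v (hv : v ∈ W1) => hW1o v hv 2
      simp only [Fin.isValue, Matrix.cons_val_zero, Matrix.cons_val_one, Matrix.cons_val] at b0 b1 b2
      have heW : e 0 ∈ W := hW1W (he 0)
      subst ha1
      refine Or.inr (Or.inr (Or.inr ⟨_, c, hwb, hc,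
        ![ℓ (ℓ u), ℓ (ℓ w'), ℓ u, ℓ w', u, w', e 0], fun i j => ?_, fun j => ?_⟩))
      · fin_cases i <;> fin_cases j <;>
          simp [gD, a0, a1, a2, b0, b1, b2, hw', hlw', hllw', heW, he,
            show B (e 0) (e 0) = c from hec] <;>
          first
            | exact hg 0 0 | exact hg 0 1 | exact hg 0 2
            | exact hg 1 0 | exact hg 1 1 | exact hg 1 2
            | exact hg 2 0 | exact hg 2 1 | exact hg 2 2
            | exact hg' 0 0 | exact hg' 0 1 | exact hg' 0 2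
            | exact hg' 1 0 | exact hg' 1 1 | exact hg' 1 2
            | exact hg' 2 0 | exact hg' 2 1 | exact hg' 2 2
      · fin_cases j <;> simp [shiftM, Fin.sum_univ_seven, hp.cube, hz _ (he _)]

end Cfsg.Agent.O73
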