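import Cfsg.Agent.OmegaSevenThree.Cent

/-!
Representatives of the classes of elements of order three.
-/

set_option autoImplicit false

namespace Cfsg.Agent.O73

open Matrix
open Cfsg.Agent.Classical (oddQF)

/-- Reflection vectors. -/
abbrev RVec : Type := {x : Ix → K3 // Cfsg.quadFormOdd 3 K3 x ≠ 0}

/-- Reflection vectors of elements commuting with the model maps. -/
def commVecs : Fin 6 → List RVec :=
  ![[⟨(![0, 1, 0, 0, 2, 0, 0] : Fin 7 → K3) ∘ pos, by decide +kernel⟩, ⟨(![1, 2, 0, 0, 0, 0, 0] : Fin 7 → K3) ∘ pos, by decide +kernel⟩],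
    [⟨(![0, 0, 1, 0, 0, 2, 0] : Fin 7 → K3) ∘ pos, by decide +kernel⟩, ⟨(![0, 1, 1, 0, 2, 2, 0] : Fin 7 → K3) ∘ pos, by decide +kernel⟩],
    [⟨(![0, 1, 0, 0, 2, 0, 0] : Fin 7 → K3) ∘ pos, by decide +kernel⟩, ⟨(![1, 1, 1, 0, 2, 1, 0] : Fin 7 → K3) ∘ pos, by decide +kernel⟩],
    [⟨(![0, 0, 1, 0, 0, 1, 0] : Fin 7 → K3) ∘ pos, by decide +kernel⟩, ⟨(![0, 0, 2, 0, 0, 1, 0] : Fin 7 → K3) ∘ pos, by decide +kernel⟩],
    [⟨(![0, 0, 1, 1, 0, 1, 1] : Fin 7 → K3) ∘ pos, by decide +kernel⟩, ⟨(![0, 0, 2, 2, 0, 1, 1] : Fin 7 → K3) ∘ pos, by decide +kernel⟩, ⟨(![1, 1, 0, 0, 1, 0, 0] : Fin 7 → K3) ∘ pos, by decide +kernel⟩, ⟨(![0, 1, 0, 0, 2, 0, 0] : Fin 7 → K3) ∘ pos, by decide +kernel⟩],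
    [⟨(![0, 0, 0, 1, 0, 0, 1] : Fin 7 → K3) ∘ pos, by decide +kernel⟩, ⟨(![0, 0, 0, 2, 0, 0, 1] : Fin 7 → K3) ∘ pos, by decide +kernel⟩, ⟨(![1, 0, 0, 0, 0, 0, 0] : Fin 7 → K3) ∘ pos, by decide +kernel⟩, ⟨(![0, 1, 0, 0, 1, 0, 0] : Fin 7 → K3) ∘ pos, by decide +kernel⟩]]

/-- Reflection vectors of an element reversing the fourth model map. -/
def revVecs : List RVec := [⟨(![0, 0, 0, 1, 0, 0, 1] : Fin 7 → K3) ∘ pos, by decide +kernel⟩, ⟨(![0, 0, 0, 2, 0, 0, 1] : Fin 7 → K3) ∘ pos, by decide +kernel⟩, ⟨(![0, 2, 0, 0, 1, 0, 0] : Fin 7 → K3) ∘ pos, by decide +kernel⟩, ⟨(![0, 1, 0, 0, 1, 0, 0] : Fin 7 → K3) ∘ pos, by decide +kernel⟩]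

/-- A product of reflections as a matrix. -/
def reflProd (l : List RVec) : Matrix Ix Ix K3 :=
  (l.map fun x => Cfsg.reflectionMatrix (Cfsg.quadFormOdd 3 K3) x.1).prod

/-- The commuting elements. -/
def commEl (k : Fin 6) : OG := mkO (reflProd (commVecs k)) (by revert k; decide +kernel)

/-- The reversing element. -/
def revEl : OG := mkO (reflProd revVecs) (by decide +kernel)

/-- Coercion of the reflection vectors. -/
def toQVec (x : RVec) : {x : Ix → K3 // oddQF 3 K3 x ≠ 0} :=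
  ⟨x.1, by rw [Classical.oddQF_apply]; exact x.2⟩

theorem theta_reflProd (g : OG) (l : List RVec) (hg : mt g = reflProd l) (hl : Even l.length) :
    (theta g).1 = 1 ∧
      ((theta g).2 = 1 ↔ IsSquare (l.map fun x => Cfsg.quadFormOdd 3 K3 x.1).prod) := by
  have h := theta_reflections g (l.map toQVec) (by rw [hg, reflProd, List.map_map]; rfl) (by simpa)
  rw [List.map_map] at h
  simpa [toQVec, Function.comp_def, Classical.oddQF_apply] using h

theorem not_square_two : ¬ IsSquare (2 : K3) := by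
  rintro ⟨r, hr⟩; revert hr; revert r; decide

theorem theta_commEl (k : Fin 6) : theta (commEl k) = (1, -1) := by
  obtain ⟨h1, h2⟩ := theta_reflProd (commEl k) (commVecs k) rfl (by revert k; decide +kernel)
  refine Prod.ext h1 ((Int.units_eq_one_or _).resolve_left fun h => not_square_two ?_)
  have h3 := h2.1 h
  rwa [show ((commVecs k).map fun x => Cfsg.quadFormOdd 3 K3 x.1).prod = 2 by
    clear h1 h2 h h3; revert k; decide +kernel] at h3

theorem theta_revEl : theta revEl = 1 := by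
  obtain ⟨h1, h2⟩ := theta_reflProd revEl revVecs rfl (by decide +kernel)
  exact Prod.ext h1 (h2.2 (by
    rw [show (revVecs.map fun x => Cfsg.quadFormOdd 3 K3 x.1).prod = 1 by decide +kernel]
    exact IsSquare.one))

theorem nilM_commEl : ∀ k : Fin 6, k ≠ 3 → reflProd (commVecs k) * nilM k = nilM k * reflProd (commVecs k) := by
  decide +kernel

theorem nilM_revEl : reflProd revVecs * nilM 3 = -(nilM 3 * reflProd revVecs) := by decide +kernel

end Cfsg.Agent.O73
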