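import Cfsg.Agent.Forms.Orthogonal

/-!
Splitting off invariant non-degenerate subspaces for a skew nilpotent map of a symmetric form over
the field with three elements.
-/

set_option autoImplicit false

namespace Cfsg.Agent.O73

open Module

abbrev K3 := ZMod 3

theorem K3.sq {a : K3} (ha : a ≠ 0) : a * a = 1 := by
  revert ha; revert a; decide

variable {V : Type*} [AddCommGroup V] [Module K3 V] [FiniteDimensional K3 V]

/-- A symmetric form with a skew map whose cube is zero. -/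
structure SkewPair (B : LinearMap.BilinForm K3 V) (ℓ : V →ₗ[K3] V) : Prop where
  symm : ∀ x y, B x y = B y x
  skew : ∀ x y, B (ℓ x) y = -B x (ℓ y)
  cube : ∀ x, ℓ (ℓ (ℓ x)) = 0

/-- An invariant non-degenerate subspace of given dimension. -/
structure Good (B : LinearMap.BilinForm K3 V) (ℓ : V →ₗ[K3] V) (W : Submodule K3 V) (n : ℕ) :
    Prop where
  nd : ∀ x ∈ W, (∀ y ∈ W, B x y = 0) → x = 0
  inv : ∀ x ∈ W, ℓ x ∈ W
  rk : finrank K3 ↥W = n

variable {B : LinearMap.BilinForm K3 V} {ℓ : V →ₗ[K3] V} {W : Submodule K3 V} {n : ℕ}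

namespace SkewPair

theorem skew' (hp : SkewPair B ℓ) (x y : V) : B x (ℓ y) = -B (ℓ x) y := by
  rw [hp.skew, neg_neg]

theorem apply_self (hp : SkewPair B ℓ) (x : V) : B x (ℓ x) = 0 := by
  have h := hp.skew x x
  rw [hp.symm] at h
  revert h
  generalize B x (ℓ x) = c
  revert c; decide

theorem symm_two (hp : SkewPair B ℓ) (x y : V) : B (ℓ (ℓ x)) y = B (ℓ (ℓ y)) x := by
  rw [hp.skew, hp.skew, neg_neg, hp.symm]

end SkewPair

theorem Good.split (hp : SkewPair B ℓ) (h : Good B ℓ W n) {k : ℕ} (f : Fin k → V)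
    (hf : ∀ i, f i ∈ W) (G : Matrix (Fin k) (Fin k) K3) (hG : G * G = 1)
    (hB : ∀ i j, B (f i) (f j) = G i j)
    (hl : ∀ i, ℓ (f i) ∈ Submodule.span K3 (Set.range f)) :
    k ≤ n ∧ ∃ W' : Submodule K3 V, W' ≤ W ∧ Good B ℓ W' (n - k) ∧
      ∀ x ∈ W', ∀ i, B x (f i) = 0 ∧ B (f i) x = 0 := by
  classical
  let φ : ↥W →ₗ[K3] (Fin k → K3) :=
    LinearMap.pi fun i => ((B.flip (f i)).comp W.subtype)
  have hφ : ∀ (x : ↥W) i, φ x i = B (x : V) (f i) := fun x i => rfl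
  have hcomb : ∀ a : Fin k → K3, ∃ hm : (∑ i, a i • f i) ∈ W,
      φ ⟨_, hm⟩ = Matrix.vecMul a G := by
    intro a
    refine ⟨W.sum_mem fun i _ => W.smul_mem _ (hf i), funext fun j => ?_⟩
    rw [hφ]
    simp only [map_sum, map_smul, LinearMap.sum_apply, LinearMap.smul_apply, hB, smul_eq_mul]
    rfl
  have hsurj : Function.Surjective φ := fun c => by
    obtain ⟨hm, he⟩ := hcomb (Matrix.vecMul c G)
    exact ⟨⟨_, hm⟩, by rw [he, Matrix.vecMul_vecMul, hG, Matrix.vecMul_one]⟩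
  have hrk := LinearMap.finrank_range_add_finrank_ker φ
  rw [LinearMap.range_eq_top.2 hsurj, finrank_top, Module.finrank_pi, Fintype.card_fin, h.rk] at hrk
  refine ⟨by omega, (LinearMap.ker φ).map W.subtype, Submodule.map_subtype_le _ _, ?_, ?_⟩
  swap
  · rintro x ⟨y, hy, rfl⟩ i
    have : B (y : V) (f i) = 0 := by rw [← hφ, LinearMap.mem_ker.1 hy]; rfl
    exact ⟨this, by rw [hp.symm]; exact this⟩
  have hmem : ∀ x : V, x ∈ (LinearMap.ker φ).map W.subtype ↔ x ∈ W ∧ ∀ i, B x (f i) = 0 := by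
    intro x
    constructor
    · rintro ⟨y, hy, rfl⟩
      exact ⟨y.2, fun i => by rw [Submodule.subtype_apply, ← hφ, LinearMap.mem_ker.1 hy]; rfl⟩
    · rintro ⟨hx, hxi⟩
      exact ⟨⟨x, hx⟩, LinearMap.mem_ker.2 (funext hxi), rfl⟩
  refine ⟨fun x hx hx0 => ?_, fun x hx => ?_, by rw [Submodule.finrank_map_subtype_eq]; omega⟩
  · obtain ⟨hxW, hxf⟩ := (hmem x).1 hx
    refine h.nd x hxW fun y hy => ?_
    obtain ⟨hm, he⟩ := hcomb (Matrix.vecMul (φ ⟨y, hy⟩) G)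
    rw [Matrix.vecMul_vecMul, hG, Matrix.vecMul_one] at he
    set z := ∑ i, Matrix.vecMul (φ ⟨y, hy⟩) G i • f i with hz
    have hd : y - z ∈ (LinearMap.ker φ).map W.subtype := by
      refine ⟨⟨y, hy⟩ - ⟨z, hm⟩, LinearMap.mem_ker.2 (by rw [map_sub, he, sub_self]), ?_⟩
      simp
    have h1 := hx0 _ hd
    have h2 : B x z = 0 := by simp [hz, map_sum, hxf]
    rw [map_sub, h2, sub_zero] at h1
    exact h1
  · obtain ⟨hxW, hxf⟩ := (hmem x).1 hx
    refine (hmem _).2 ⟨h.inv x hxW, fun i => ?_⟩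
    rw [hp.skew, neg_eq_zero]
    have hle : Submodule.span K3 (Set.range f) ≤ LinearMap.ker (B x) :=
      Submodule.span_le.2 (by rintro _ ⟨j, rfl⟩; exact hxf j)
    exact hle (hl i)

/-- Gram matrix of a block of length three. -/
def gram3 (a : K3) : Matrix (Fin 3) (Fin 3) K3 := !![0, 0, a; 0, -a, 0; a, 0, 0]

/-- Gram matrix of a block of two chains of length two. -/
def gram4 : Matrix (Fin 4) (Fin 4) K3 := !![0, 0, 0, 1; 0, 0, -1, 0; 0, -1, 0, 0; 1, 0, 0, 0]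

theorem step3 (hp : SkewPair B ℓ) (h : Good B ℓ W n) {v : V} (hv : v ∈ W) {a : K3} (ha : a ≠ 0)
    (hva : B (ℓ (ℓ v)) v = a) :
    3 ≤ n ∧ ∃ u ∈ W, B (ℓ (ℓ u)) u = a ∧
      (∀ i j, B (![ℓ (ℓ u), ℓ u, u] i) (![ℓ (ℓ u), ℓ u, u] j) = gram3 a i j) ∧
      ∃ W' : Submodule K3 V, W' ≤ W ∧ Good B ℓ W' (n - 3) ∧
        ∀ x ∈ W', ∀ i, B x (![ℓ (ℓ u), ℓ u, u] i) = 0 ∧ B (![ℓ (ℓ u), ℓ u, u] i) x = 0 := by
  set t := B v v * a with ht
  set u := v + t • ℓ (ℓ v) with hu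
  have hvv : B v (ℓ (ℓ v)) = a := by rw [hp.symm, hva]
  have huW : u ∈ W := W.add_mem hv (W.smul_mem _ (h.inv _ (h.inv _ hv)))
  have hl1 : ℓ u = ℓ v := by simp [hu, hp.cube]
  have h00 : B (ℓ (ℓ v)) (ℓ (ℓ v)) = 0 := by rw [hp.skew, hp.cube, map_zero, neg_zero]
  have h01 : B (ℓ (ℓ v)) (ℓ v) = 0 := by rw [hp.skew, hp.apply_self, neg_zero]
  have h10 : B (ℓ v) (ℓ (ℓ v)) = 0 := hp.apply_self _
  have h11 : B (ℓ v) (ℓ v) = -a := by rw [hp.skew, hvv]
  have h02 : B (ℓ (ℓ v)) u = a := by simp [hu, hva, h00]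
  have h20 : B u (ℓ (ℓ v)) = a := by rw [hp.symm, h02]
  have h12 : B (ℓ v) u = 0 := by simp [hu, h10, hp.symm (ℓ v) v, hp.apply_self]
  have h21 : B u (ℓ v) = 0 := by rw [hp.symm, h12]
  have h22 : B u u = 0 := by
    simp only [hu, map_add, map_smul, LinearMap.add_apply, LinearMap.smul_apply, smul_eq_mul, hva,
      hvv, h00, ht, mul_zero, add_zero]
    have hsq := K3.sq ha
    have h3 : (3 : K3) = 0 := by decide
    linear_combination (2 * B v v) * hsq + B v v * h3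
  have hgram : ∀ i j, B (![ℓ (ℓ u), ℓ u, u] i) (![ℓ (ℓ u), ℓ u, u] j) = gram3 a i j := by
    intro i j
    rw [hl1]
    fin_cases i <;> fin_cases j <;> simp [gram3, h00, h01, h02, h10, h11, h12, h20, h21, h22]
  obtain ⟨hk, W', hW'⟩ := h.split hp ![ℓ (ℓ u), ℓ u, u]
    (fun i => by fin_cases i <;> simp [huW, h.inv _ huW, h.inv _ (h.inv _ huW)]) (gram3 a)
    (by
      have hsq := K3.sq ha
      ext i j; fin_cases i <;> fin_cases j <;>
        simp [gram3, Matrix.mul_apply, Fin.sum_univ_three, hsq])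
    hgram (fun i => by
      fin_cases i
      · simp [hp.cube]
      · exact Submodule.subset_span ⟨0, rfl⟩
      · exact Submodule.subset_span ⟨1, rfl⟩)
  exact ⟨hk, u, huW, by rw [hl1]; exact h02, hgram, W', hW'⟩

theorem step4 (hp : SkewPair B ℓ) (h : Good B ℓ W n) {u w : V} (hu : u ∈ W) (hw : w ∈ W)
    (hu2 : ℓ (ℓ u) = 0) (hw2 : ℓ (ℓ w) = 0) (hne : B (ℓ u) w ≠ 0) :
    4 ≤ n ∧ ∃ x ∈ W, ∃ y ∈ W, ℓ (ℓ x) = 0 ∧ ℓ (ℓ y) = 0 ∧
      (∀ i j, B (![ℓ x, ℓ y, x, y] i) (![ℓ x, ℓ y, x, y] j) = gram4 i j) ∧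
      ∃ W' : Submodule K3 V, W' ≤ W ∧ Good B ℓ W' (n - 4) ∧
        ∀ z ∈ W', ∀ i, B z (![ℓ x, ℓ y, x, y] i) = 0 ∧ B (![ℓ x, ℓ y, x, y] i) z = 0 := by
  set w1 := B (ℓ u) w • w with hw1
  have hsq := K3.sq hne
  have hw12 : ℓ (ℓ w1) = 0 := by simp [hw1, hw2]
  have huw1 : B (ℓ u) w1 = 1 := by rw [hw1, map_smul, smul_eq_mul, hsq]
  have hz : ∀ a b : V, ℓ (ℓ a) = 0 → B (ℓ a) (ℓ b) = 0 ∧ B (ℓ b) (ℓ a) = 0 := fun a b ha =>
    ⟨by rw [hp.skew', ha, map_zero, LinearMap.zero_apply, neg_zero],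
     by rw [hp.skew, ha, map_zero, neg_zero]⟩
  set u1 := u + (-(B u u)) • ℓ w1 with hu1
  set y := w1 + B w1 w1 • ℓ u with hy
  set x := u1 + (-(B u1 y)) • ℓ u with hx
  have hxl : ℓ x = ℓ u := by simp [hx, hu1, hw12, hu2]
  have hyl : ℓ y = ℓ w1 := by simp [hy, hu2]
  have huw2 : B u (ℓ w1) = -1 := by rw [hp.skew', huw1]
  have hu1u1 : B u1 u1 = 0 := by
    simp only [hu1, map_add, map_smul, map_neg, LinearMap.add_apply, LinearMap.smul_apply,
      LinearMap.neg_apply, smul_eq_mul, (hz w1 w1 hw12).1, huw2, hp.symm (ℓ w1) u]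
    have h3 : (3 : K3) = 0 := by decide
    linear_combination B u u * h3
  have hyy : B y y = 0 := by
    simp only [hy, map_add, map_smul, LinearMap.add_apply, LinearMap.smul_apply, smul_eq_mul,
      (hz u u hu2).1, huw1, hp.symm w1 (ℓ u)]
    have h3 : (3 : K3) = 0 := by decide
    linear_combination B w1 w1 * h3
  have hu1lu : B (ℓ u) u1 = 0 := by
    simp only [hu1, map_add, map_smul, smul_eq_mul, (hz u w1 hu2).1, hp.symm (ℓ u) u,
      hp.apply_self, mul_zero, add_zero]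
  have hluy : B (ℓ u) y = 1 := by
    simp [hy, huw1, (hz u u hu2).1]
  have hxx : B x x = 0 := by
    simp only [hx, map_add, map_smul, map_neg, LinearMap.add_apply, LinearMap.smul_apply,
      LinearMap.neg_apply, smul_eq_mul, hu1u1, hu1lu, hp.symm u1 (ℓ u), (hz u u hu2).1]
    ring
  have hxy : B x y = 0 := by
    simp only [hx, map_add, map_smul, map_neg, LinearMap.add_apply, LinearMap.smul_apply,
      LinearMap.neg_apply, smul_eq_mul, hluy]
    ring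
  have hx2 : ℓ (ℓ x) = 0 := by rw [hxl, hu2]
  have hy2 : ℓ (ℓ y) = 0 := by rw [hyl, hw12]
  have hxlx : B (ℓ x) x = 0 := by rw [hp.symm, hp.apply_self]
  have hyly : B (ℓ y) y = 0 := by rw [hp.symm, hp.apply_self]
  have hlxy : B (ℓ x) y = 1 := by rw [hxl, hluy]
  have hlyx : B (ℓ y) x = -1 := by rw [hp.skew, hp.symm, hlxy]
  have hgram : ∀ i j, B (![ℓ x, ℓ y, x, y] i) (![ℓ x, ℓ y, x, y] j) = gram4 i j := by
    intro i j
    fin_cases i <;> fin_cases j <;>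
      simp [gram4, (hz x x hx2).1, (hz x y hx2).1, (hz x y hx2).2, (hz y y hy2).1, hxlx, hyly,
        hlxy, hlyx, hxx, hyy, hxy, hp.symm y x, hp.symm x (ℓ x), hp.symm x (ℓ y), hp.symm y (ℓ x),
        hp.symm y (ℓ y)]
  have hxW : x ∈ W := W.add_mem (W.add_mem hu (W.smul_mem _ (h.inv _ (W.smul_mem _ hw))))
    (W.smul_mem _ (h.inv _ hu))
  have hyW : y ∈ W := W.add_mem (W.smul_mem _ hw) (W.smul_mem _ (h.inv _ hu))
  obtain ⟨hk, W', hW'⟩ := h.split hp ![ℓ x, ℓ y, x, y]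
    (fun i => by fin_cases i <;> simp [hxW, hyW, h.inv _ hxW, h.inv _ hyW]) gram4 (by decide)
    hgram (fun i => by
      fin_cases i
      · simp [hx2]
      · simp [hy2]
      · exact Submodule.subset_span ⟨0, rfl⟩
      · exact Submodule.subset_span ⟨1, rfl⟩)
  exact ⟨hk, x, hxW, y, hyW, hx2, hy2, hgram, W', hW'⟩

theorem sq_zero_of_isotropic (hp : SkewPair B ℓ) (h : Good B ℓ W n)
    (hiso : ∀ v ∈ W, B (ℓ (ℓ v)) v = 0) : ∀ v ∈ W, ℓ (ℓ v) = 0 := by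
  intro v hv
  refine h.nd _ (h.inv _ (h.inv _ hv)) fun y hy => ?_
  have h1 := hiso (v + y) (W.add_mem hv hy)
  simp only [map_add, LinearMap.add_apply, hiso v hv, hiso y hy, hp.symm_two y v] at h1
  revert h1
  generalize B (ℓ (ℓ v)) y = c
  revert c; decide

theorem exists_pair (h : Good B ℓ W n) (hne : ¬ ∀ v ∈ W, ℓ v = 0) :
    ∃ u ∈ W, ∃ w ∈ W, B (ℓ u) w ≠ 0 := by
  push Not at hne
  obtain ⟨u, hu, hlu⟩ := hne
  by_contra hc
  push Not at hc
  exact hlu (h.nd _ (h.inv _ hu) fun y hy => hc u hu y hy)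

/-- An orthogonal family of a trivial piece, with all values `1` but the last. -/
theorem step0 (hp : SkewPair B ℓ) (h : Good B ℓ W (n + 1)) :
    ∃ (e : Fin (n + 1) → V) (c : K3), c ≠ 0 ∧ (∀ i, e i ∈ W) ∧
      (∀ i j, i ≠ j → B (e i) (e j) = 0) ∧ (∀ i, i ≠ Fin.last n → B (e i) (e i) = 1) ∧
      B (e (Fin.last n)) (e (Fin.last n)) = c := by
  obtain ⟨b, hb, h1, h2, h3⟩ := Forms.exists_orthogonal_family_symm (F := K3) (by decide) B
    ⟨hp.symm⟩ (α := -1) (by rintro ⟨r, hr⟩; revert hr; revert r; decide) n W h.nd h.rk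
  rcases h3 with h3 | h3
  · exact ⟨b, 1, one_ne_zero, hb, h1, h2, h3⟩
  · exact ⟨b, -1, by decide, hb, h1, h2, h3⟩

theorem step1 (hp : SkewPair B ℓ) (h : Good B ℓ W 1) : ∀ v ∈ W, ℓ v = 0 := by
  by_contra hne
  obtain ⟨u, hu, hlu⟩ : ∃ u ∈ W, ℓ u ≠ 0 := by push Not at hne; exact hne
  obtain ⟨⟨e, he⟩, he0, hsp⟩ := finrank_eq_one_iff'.1 h.rk
  obtain ⟨s, hs⟩ := hsp ⟨u, hu⟩
  obtain ⟨t, ht⟩ := hsp ⟨ℓ e, h.inv e he⟩
  simp only [Subtype.ext_iff, SetLike.val_smul] at hs ht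
  have h3 := hp.cube e
  rw [← ht, map_smul, ← ht, map_smul, map_smul, ← ht] at h3
  have he0' : e ≠ 0 := fun hh => he0 (Subtype.ext hh)
  simp only [smul_eq_zero, he0', or_false, or_self] at h3
  exact hlu (by rw [← hs, map_smul, ← ht, h3, zero_smul, smul_zero])

end Cfsg.Agent.O73
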